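import Mathlib
import Cfsg.Prelude.Def_GeometricClasses

/-!
# Project QSim (S5981): interface

`PSL_n(q)`, `q` odd, and the subgroup of similarities of a non-degenerate quadratic form `Q`.
All packages are closed `Prop`s; see the plan notes (topic S5981) for the paper proofs.
-/

set_option autoImplicit false
open scoped MatrixGroups Matrix

namespace Cfsg.Agent.Lib.Helper58.QSim

universe u

/-- `x` lifts an element of order `r` of `PSL_n(F)`: determinant 1, `x^r` scalar, `x` not scalar. -/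
def Elt (n : ℕ) (F : Type u) [Field F] (r : ℕ) (x : GL (Fin n) F) : Prop :=
  x ∈ Cfsg.Geo.specialLinear (Fin n) F ∧
  (∃ z : F, ((x ^ r : GL (Fin n) F) : Matrix (Fin n) (Fin n) F) = z • (1 : Matrix (Fin n) (Fin n) F)) ∧
  (∀ z : F, (x : Matrix (Fin n) (Fin n) F) ≠ z • (1 : Matrix (Fin n) (Fin n) F))

/-- `x` is `SL_n`-conjugate into the similarity group of `Q`. -/
def Conj {n : ℕ} {F : Type u} [Field F] (Q : (Fin n → F) → F) (x : GL (Fin n) F) : Prop :=
  ∃ g ∈ Cfsg.Geo.specialLinear (Fin n) F, g⁻¹ * x * g ∈ Cfsg.Geo.quadSimilarityGroup Q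

/-- `y` is an isometry of `Q`. -/
def Isom {n : ℕ} {F : Type u} [Field F] (Q : (Fin n → F) → F) (y : GL (Fin n) F) : Prop :=
  ∀ v : Fin n → F, Q ((y : Matrix (Fin n) (Fin n) F) *ᵥ v) = Q v

/-- The matrix `x - c`. -/
abbrev sh {n : ℕ} {F : Type u} [Field F] (x : GL (Fin n) F) (c : F) : Matrix (Fin n) (Fin n) F :=
  (x : Matrix (Fin n) (Fin n) F) - c • (1 : Matrix (Fin n) (Fin n) F)

/-- The matrix `f(x)`. -/
noncomputable abbrev pv {n : ℕ} {F : Type u} [Field F] (f : Polynomial F) (x : GL (Fin n) F) :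
    Matrix (Fin n) (Fin n) F :=
  Polynomial.aeval (x : Matrix (Fin n) (Fin n) F) f

/-! ## Top-level packages (the cases of the theorem) -/

/-- [INV] every involution of `PSL_n(q)`, `q` odd, is conjugate into the similarity group. -/
def PkgInv : Prop :=
  ∀ (F : Type u) [Field F] [Fintype F] (n : ℕ) (Q : (Fin n → F) → F),
    Odd (Fintype.card F) → 3 ≤ n → Cfsg.Geo.IsNondegenerateQuadraticForm Q →
    ∀ x : GL (Fin n) F, Elt n F 2 x → Conj Q x

/-- [R35] `n = r ∈ {3, 5}`, `(q - 1)_r = r`: every element of order `r` is conjugate into the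
similarity group. -/
def PkgR35 : Prop :=
  ∀ (F : Type u) [Field F] [Fintype F] (r : ℕ) (Q : (Fin r → F) → F),
    (r = 3 ∨ r = 5) → Odd (Fintype.card F) → padicValNat r (Fintype.card F - 1) = 1 →
    Cfsg.Geo.IsNondegenerateQuadraticForm Q →
    ∀ x : GL (Fin r) F, Elt r F r x → Conj Q x

/-- [P] `r = p` odd: a transvection is not conjugate into the similarity group. -/
def PkgP : Prop :=
  ∀ (F : Type u) [Field F] [Fintype F] (p : ℕ) [Fact p.Prime] [CharP F p] (n : ℕ)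
    (Q : (Fin n → F) → F), p ≠ 2 → 2 ≤ n → Cfsg.Geo.IsNondegenerateQuadraticForm Q →
    ∃ x : GL (Fin n) F, Elt n F p x ∧ ¬ Conj Q x

/-- [I1] `r` odd dividing `q - 1`, outside the exceptions: a bad diagonal element. -/
def PkgI1 : Prop :=
  ∀ (F : Type u) [Field F] [Fintype F] (n r : ℕ) (Q : (Fin n → F) → F),
    r.Prime → r ≠ 2 → Odd (Fintype.card F) → 3 ≤ n → r ∣ Fintype.card F - 1 →
    ¬ (n = 6 ∧ r = 3) →
    ¬ ((r = 3 ∨ r = 5) ∧ n = r ∧ padicValNat r (Fintype.card F - 1) = 1) →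
    Cfsg.Geo.IsNondegenerateQuadraticForm Q →
    ∃ x : GL (Fin n) F, Elt n F r x ∧ ¬ Conj Q x

/-- [IODD] `r ∤ q(q-1)`, the order `i` of `q` mod `r` is odd and `≤ n`: a bad element. -/
def PkgIOdd : Prop :=
  ∀ (F : Type u) [Field F] [Fintype F] (n r : ℕ) (Q : (Fin n → F) → F),
    r.Prime → r ≠ 2 → ¬ r ∣ Fintype.card F → ¬ r ∣ Fintype.card F - 1 →
    Odd (orderOf ((Fintype.card F : ℕ) : ZMod r)) →
    orderOf ((Fintype.card F : ℕ) : ZMod r) ≤ n →
    Cfsg.Geo.IsNondegenerateQuadraticForm Q →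
    ∃ x : GL (Fin n) F, Elt n F r x ∧ ¬ Conj Q x

/-- [IEVEN] `r ∤ q(q-1)`, the order `i` of `q` mod `r` is even and `≤ n`, and `r` divides the index:
a bad element. -/
def PkgIEven : Prop :=
  ∀ (F : Type u) [Field F] [Fintype F] (n r : ℕ) (Q : (Fin n → F) → F),
    r.Prime → r ≠ 2 → Odd (Fintype.card F) → ¬ r ∣ Fintype.card F → ¬ r ∣ Fintype.card F - 1 →
    Even (orderOf ((Fintype.card F : ℕ) : ZMod r)) →
    orderOf ((Fintype.card F : ℕ) : ZMod r) ≤ n →
    Cfsg.Geo.IsNondegenerateQuadraticForm Q →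
    r ∣ (Cfsg.Geo.quadSimilarityGroup Q).relIndex (Cfsg.Geo.specialLinear (Fin n) F) →
    ∃ x : GL (Fin n) F, Elt n F r x ∧ ¬ Conj Q x

/-- [CARD] a prime `r ≠ p` dividing the index of a subgroup of `SL_n(q)` has `ord_r(q) ≤ n`. -/
def PkgCard : Prop :=
  ∀ (F : Type u) [Field F] [Fintype F] (n r : ℕ) (K : Subgroup (GL (Fin n) F)),
    r.Prime → ¬ r ∣ Fintype.card F → 1 ≤ n →
    r ∣ K.relIndex (Cfsg.Geo.specialLinear (Fin n) F) →
    orderOf ((Fintype.card F : ℕ) : ZMod r) ≤ n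

/-! ## Tools and sub-packages -/

/-- [RANK] eigenvalue symmetry of an element conjugate to a similarity with multiplier `μ`. -/
def PkgRank : Prop :=
  ∀ (F : Type u) [Field F] (n : ℕ) (Q : (Fin n → F) → F) (x : GL (Fin n) F),
    Cfsg.Geo.IsNondegenerateQuadraticForm Q → Conj Q x →
    ∃ μ : F, μ ≠ 0 ∧ ∀ a : F, a ≠ 0 → (sh x a).rank = (sh x (μ / a)).rank

/-- [BLK] the block element `diag(A, ..., A, 1)`: `A` irreducible of order `r` and degree
`i = ord_r(q)`, repeated `n / i` times. -/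
def PkgBlk : Prop :=
  ∀ (F : Type u) [Field F] [Fintype F] (n r : ℕ),
    r.Prime → ¬ r ∣ Fintype.card F → ¬ r ∣ Fintype.card F - 1 →
    orderOf ((Fintype.card F : ℕ) : ZMod r) ≤ n →
    ∃ (x : GL (Fin n) F) (f : Polynomial F), Elt n F r x ∧ x ^ r = 1 ∧ Irreducible f ∧
      f.natDegree = orderOf ((Fintype.card F : ℕ) : ZMod r) ∧ f ∣ Polynomial.X ^ r - 1 ∧
      pv f x * sh x 1 = 0 ∧
      (sh x 1).rank = n / orderOf ((Fintype.card F : ℕ) : ZMod r) *
        orderOf ((Fintype.card F : ℕ) : ZMod r)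

/-- [RECIP] an irreducible factor of `X^r - 1` of degree `i = ord_r(q) ≥ 2` is self-reciprocal
if `i` is even and coprime to its reciprocal if `i` is odd. -/
def PkgRecip : Prop :=
  ∀ (F : Type u) [Field F] [Fintype F] (r : ℕ) (f : Polynomial F),
    r.Prime → r ≠ 2 → ¬ r ∣ Fintype.card F → Irreducible f → f ∣ Polynomial.X ^ r - 1 →
    f.natDegree = orderOf ((Fintype.card F : ℕ) : ZMod r) → 2 ≤ f.natDegree →
    (Even f.natDegree → f ∣ f.reverse) ∧ (Odd f.natDegree → IsCoprime f f.reverse)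

/-- [MU] a similarity of order dividing `r`, `r ∤ q - 1`, is an isometry. -/
def PkgMu : Prop :=
  ∀ (F : Type u) [Field F] [Fintype F] (n r : ℕ) (Q : (Fin n → F) → F) (y : GL (Fin n) F),
    r.Prime → ¬ r ∣ Fintype.card F - 1 → Cfsg.Geo.IsNondegenerateQuadraticForm Q → 1 ≤ n →
    y ∈ Cfsg.Geo.quadSimilarityGroup Q → y ^ r = 1 → Isom Q y

/-- [CONJT] transport of the block structure under conjugation. -/
def PkgConjT : Prop :=
  ∀ (F : Type u) [Field F] (n r : ℕ) (x g : GL (Fin n) F) (f : Polynomial F),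
    x ^ r = 1 → pv f x * sh x 1 = 0 →
    (g⁻¹ * x * g) ^ r = 1 ∧ pv f (g⁻¹ * x * g) * sh (g⁻¹ * x * g) 1 = 0 ∧
      (sh (g⁻¹ * x * g) 1).rank = (sh x 1).rank

/-- [ISOCOP] an isometry `y` with `f(y)(y - 1) = 0`, `f` irreducible of degree `≥ 2` and coprime
to its reciprocal, is the identity. -/
def PkgIsoCop : Prop :=
  ∀ (F : Type u) [Field F] (n : ℕ) (Q : (Fin n → F) → F) (y : GL (Fin n) F) (f : Polynomial F),
    Cfsg.Geo.IsNondegenerateQuadraticForm Q → Isom Q y → Irreducible f → 2 ≤ f.natDegree →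
    IsCoprime f f.reverse → pv f y * sh y 1 = 0 → y = 1

/-- [MONO] the monomial subgroup: an isometry `y` with `f(y)(y - 1) = 0`, `f` irreducible
self-reciprocal of degree `2e`, `rank (y - 1) = k * (2e)`, gives a group of isometries of order
divisible by `(q^e + 1)^k * k!`. -/
def PkgMono : Prop :=
  ∀ (F : Type u) [Field F] [Fintype F] (n e k : ℕ) (Q : (Fin n → F) → F) (y : GL (Fin n) F)
    (f : Polynomial F),
    Odd (Fintype.card F) → Cfsg.Geo.IsNondegenerateQuadraticForm Q → Isom Q y →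
    Irreducible f → f.natDegree = 2 * e → 1 ≤ e → f ∣ f.reverse → pv f y * sh y 1 = 0 →
    (sh y 1).rank = k * (2 * e) →
    ∃ M : Subgroup (GL (Fin n) F), (∀ m ∈ M, Isom Q m) ∧
      ((Fintype.card F) ^ e + 1) ^ k * k.factorial ∣ Nat.card M

/-- [EVAR] arithmetic: a subgroup `K` of `GL_n(q)` containing a subgroup `M` of order divisible by
`(q^e + 1)^k * k!`, `2e = ord_r(q)`, `k = n / (2e)`, has index prime to `r` in `SL_n(q)`. -/
def PkgEvAr : Prop :=
  ∀ (F : Type u) [Field F] [Fintype F] (n r e : ℕ) (M K : Subgroup (GL (Fin n) F)),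
    r.Prime → r ≠ 2 → ¬ r ∣ Fintype.card F → 1 ≤ e →
    orderOf ((Fintype.card F : ℕ) : ZMod r) = 2 * e → M ≤ K →
    ((Fintype.card F) ^ e + 1) ^ (n / (2 * e)) * (n / (2 * e)).factorial ∣ Nat.card M →
    ¬ r ∣ K.relIndex (Cfsg.Geo.specialLinear (Fin n) F)

end Cfsg.Agent.Lib.Helper58.QSim
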