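import Cfsg.Agent.Lib.Helper58.QSim.Defs

/-!
# Project QSim (S5981): the cut of [MONO]

`PkgMono` is obtained from the abstract hermitian package `PkgHMono` by the bridge
`pkgMono_of : PkgHMono → PkgMono` (package [MBRIDGE], to be proved by its taker).
-/

set_option autoImplicit false
open scoped MatrixGroups Matrix

namespace Cfsg.Agent.Lib.Helper58.QSim

universe u

/-- [NORM] a finite field `K` of odd order `Q₀²` with an involutory automorphism `σ ≠ 1`: the
norm-one group `{u | u σ(u) = 1}` has `Q₀ + 1` elements and every non-zero `σ`-fixed element is a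
norm `m σ(m)`. -/
def PkgNorm : Prop :=
  ∀ (K : Type u) [Field K] [Fintype K] (σ : K ≃+* K) (Q₀ : ℕ),
    Odd (Fintype.card K) → Fintype.card K = Q₀ ^ 2 → (∀ a, σ (σ a) = a) → (∃ a, σ a ≠ a) →
    Nat.card {u : K // u * σ u = 1} = Q₀ + 1 ∧
      ∀ d : K, d ≠ 0 → σ d = d → ∃ m : K, m * σ m = d

/-- [HMONO] the abstract monomial group. `K ⊇ F` finite fields, `|K| = q^(2e)`, `σ` an involutory
`F`-automorphism of `K`, `σ ≠ 1`; `W` a `K`-vector space of dimension `k` with a symmetric
non-degenerate `F`-bilinear form `β` such that `β (a • u) v = β u (σ a • v)`. Then there is a group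
of `F`-linear isometries of `(W, β)` of order divisible by `(q^e + 1)^k * k!`. -/
def PkgHMono : Prop :=
  ∀ (F K W : Type u) [Field F] [Fintype F] [Field K] [Fintype K] [Algebra F K]
    [AddCommGroup W] [Module F W] [Module K W] [IsScalarTower F K W] [Module.Finite K W]
    (σ : K ≃ₐ[F] K) (β : LinearMap.BilinForm F W) (e k : ℕ),
    Odd (Fintype.card F) → Fintype.card K = (Fintype.card F) ^ (2 * e) →
    (∀ a, σ (σ a) = a) → (∃ a, σ a ≠ a) →
    (∀ u v, β u v = β v u) → (∀ u, u ≠ 0 → ∃ v, β u v ≠ 0) →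
    (∀ (a : K) (u v : W), β (a • u) v = β u (σ a • v)) →
    Module.finrank K W = k →
    ∃ M : Subgroup (W ≃ₗ[F] W), (∀ m ∈ M, ∀ u v, β (m u) (m v) = β u v) ∧
      ((Fintype.card F) ^ e + 1) ^ k * k.factorial ∣ Nat.card M

end Cfsg.Agent.Lib.Helper58.QSim
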