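import Cfsg.Agent.Lib.Helper58.QSim.Defs

/-!
# Project QSim (S5981): assembly
-/

set_option autoImplicit false
open scoped MatrixGroups Matrix

namespace Cfsg.Agent.Lib.Helper58.QSim

universe u

/-- [IODD] from the block element, the reciprocity of its polynomial and the isometry lemma. -/
theorem pkgIOdd_of (hBlk : PkgBlk.{u}) (hRecip : PkgRecip.{u}) (hMu : PkgMu.{u})
    (hConjT : PkgConjT.{u}) (hIsoCop : PkgIsoCop.{u}) : PkgIOdd.{u} := by
  intro F _ _ n r Q hr hr2 hrq hrq1 hodd hle hQ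
  obtain ⟨x, f, hElt, hxr, hirr, hdeg, hdvd, hfx, _⟩ := hBlk F n r hr hrq hrq1 hle
  refine ⟨x, hElt, ?_⟩
  rintro ⟨g, _, hgH⟩
  have hi2 : 2 ≤ orderOf ((Fintype.card F : ℕ) : ZMod r) := by
    by_contra hlt
    have h1 : orderOf ((Fintype.card F : ℕ) : ZMod r) = 1 := by
      have := Nat.odd_iff.mp hodd
      omega
    rw [orderOf_eq_one_iff] at h1
    have hpos : 1 ≤ Fintype.card F := Fintype.card_pos
    have h2 : ((Fintype.card F - 1 : ℕ) : ZMod r) = 0 := by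
      rw [Nat.cast_sub hpos, h1]; simp
    exact hrq1 ((ZMod.natCast_eq_zero_iff _ _).mp h2)
  have hn1 : 1 ≤ n := by omega
  obtain ⟨hyr, hfy, _⟩ := hConjT F n r x g f hxr hfx
  have hiso := hMu F n r Q (g⁻¹ * x * g) hr hrq1 hQ hn1 hgH hyr
  have hcop := (hRecip F r f hr hr2 hrq hirr hdvd hdeg (hdeg ▸ hi2)).2 (hdeg ▸ hodd)
  have hy1 := hIsoCop F n Q (g⁻¹ * x * g) f hQ hiso hirr (hdeg ▸ hi2) hcop hfy
  have hx1 : x = 1 := by
    have := congrArg (fun t => g * t * g⁻¹) hy1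
    simpa [mul_assoc] using this
  exact hElt.2.2 1 (by rw [hx1]; simp)

/-- [IEVEN] from the block element, the monomial subgroup and the arithmetic of the index. -/
theorem pkgIEven_of (hBlk : PkgBlk.{u}) (hRecip : PkgRecip.{u}) (hMu : PkgMu.{u})
    (hConjT : PkgConjT.{u}) (hMono : PkgMono.{u}) (hEvAr : PkgEvAr.{u}) : PkgIEven.{u} := by
  intro F _ _ n r Q hr hr2 hqodd hrq hrq1 heven hle hQ hΩ
  obtain ⟨x, f, hElt, hxr, hirr, hdeg, hdvd, hfx, hrank⟩ := hBlk F n r hr hrq hrq1 hle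
  refine ⟨x, hElt, ?_⟩
  rintro ⟨g, _, hgH⟩
  obtain ⟨e, he⟩ := heven
  have he2 : orderOf ((Fintype.card F : ℕ) : ZMod r) = 2 * e := by omega
  have hpos : 0 < orderOf ((Fintype.card F : ℕ) : ZMod r) := by
    apply orderOf_pos_iff.mpr
    have : Fact r.Prime := ⟨hr⟩
    have h0 : ((Fintype.card F : ℕ) : ZMod r) ≠ 0 := fun h0 =>
      hrq ((ZMod.natCast_eq_zero_iff _ _).mp h0)
    exact isOfFinOrder_iff_pow_eq_one.mpr ⟨r - 1, by have := hr.two_le; omega,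
      ZMod.pow_card_sub_one_eq_one h0⟩
  have he1 : 1 ≤ e := by omega
  have hn1 : 1 ≤ n := by omega
  obtain ⟨hyr, hfy, hrk⟩ := hConjT F n r x g f hxr hfx
  have hiso := hMu F n r Q (g⁻¹ * x * g) hr hrq1 hQ hn1 hgH hyr
  have hi2 : 2 ≤ f.natDegree := by omega
  have hrec := (hRecip F r f hr hr2 hrq hirr hdvd hdeg hi2).1 ⟨e, by omega⟩
  obtain ⟨M, hM, hMcard⟩ := hMono F n e (n / (2 * e)) Q (g⁻¹ * x * g) f hqodd hQ hiso hirr
    (by omega) he1 hrec hfy (by rw [hrk, hrank, he2])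
  have hMK : M ≤ Cfsg.Geo.quadSimilarityGroup Q := by
    intro m hm
    exact ⟨1, fun v => by simpa using hM m hm v⟩
  exact hEvAr F n r e M (Cfsg.Geo.quadSimilarityGroup Q) hr hr2 hrq he1 he2 hMK hMcard hΩ

/-- S5981 from the seven top-level packages. -/
theorem main5981 (hInv : PkgInv.{u}) (hR35 : PkgR35.{u}) (hP : PkgP.{u}) (hI1 : PkgI1.{u})
    (hIO : PkgIOdd.{u}) (hIE : PkgIEven.{u}) (hCard : PkgCard.{u})
    {F : Type u} [Field F] [Fintype F] {p : ℕ} [Fact p.Prime] [CharP F p] {q : ℕ}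
    (hq : Fintype.card F = q) (hodd : Odd q) (n : ℕ) (hn : 3 ≤ n) (Q : (Fin n → F) → F)
    (hQ : Cfsg.Geo.IsNondegenerateQuadraticForm Q)
    (r : ℕ) [Fact r.Prime] (hgap : ¬ (n = 6 ∧ r = 3))
    (hΩ : r ∣ (Cfsg.Geo.quadSimilarityGroup Q).relIndex (Cfsg.Geo.specialLinear (Fin n) F)) :
    (∀ x ∈ Cfsg.Geo.specialLinear (Fin n) F, (∃ z : F, ((x ^ r : GL (Fin n) F) : Matrix (Fin n) (Fin n) F) = z • (1 : Matrix (Fin n) (Fin n) F)) →
      (∀ z : F, (x : Matrix (Fin n) (Fin n) F) ≠ z • (1 : Matrix (Fin n) (Fin n) F)) →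
      ∃ g ∈ Cfsg.Geo.specialLinear (Fin n) F, g⁻¹ * x * g ∈ Cfsg.Geo.quadSimilarityGroup Q) ↔
    (r = 2 ∨ ((r = 3 ∨ r = 5) ∧ n = r ∧ padicValNat r (q - 1) = 1)) := by
  subst hq
  have hr : r.Prime := Fact.out
  constructor
  · intro h
    by_contra hR
    have hr2 : r ≠ 2 := fun h2 => hR (Or.inl h2)
    have hex : ¬ ((r = 3 ∨ r = 5) ∧ n = r ∧ padicValNat r (Fintype.card F - 1) = 1) :=
      fun h3 => hR (Or.inr h3)
    have key : ∃ x : GL (Fin n) F, Elt n F r x ∧ ¬ Conj Q x := by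
      by_cases hrp : r = p
      · subst hrp
        exact hP F r n Q hr2 (by omega) hQ
      · have hrq : ¬ r ∣ Fintype.card F := by
          obtain ⟨k, -, hk⟩ := FiniteField.card F p
          rw [hk]
          intro hd
          have := (Nat.prime_dvd_prime_iff_eq hr (Fact.out : p.Prime)).mp (hr.dvd_of_dvd_pow hd)
          exact hrp this
        by_cases h1 : r ∣ Fintype.card F - 1
        · exact hI1 F n r Q hr hr2 hodd hn h1 hgap hex hQ
        · have hle := hCard F n r (Cfsg.Geo.quadSimilarityGroup Q) hr hrq (by omega) hΩ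
          rcases Nat.even_or_odd (orderOf ((Fintype.card F : ℕ) : ZMod r)) with he | ho
          · exact hIE F n r Q hr hr2 hodd hrq h1 he hle hQ hΩ
          · exact hIO F n r Q hr hr2 hrq h1 ho hle hQ
    obtain ⟨x, hx, hnc⟩ := key
    exact hnc (h x hx.1 hx.2.1 hx.2.2)
  · rintro (rfl | ⟨h35, rfl, hv⟩)
    · intro x hx hz hns
      exact hInv F n Q hodd hn hQ x ⟨hx, hz, hns⟩
    · intro x hx hz hns
      exact hR35 F n Q h35 hodd hv hQ x ⟨hx, hz, hns⟩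

end Cfsg.Agent.Lib.Helper58.QSim
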